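import Cfsg.Agent.Lib.Ree.Abs3

/-!
# The concrete Ree group: identifying data
-/

set_option autoImplicit false

namespace Cfsg.Agent.Lib.Ree.Abs

open Cfsg.Lie Cfsg.Agent.Lib.Ree.Sub Cfsg.Agent.Lib.Ree.Main

variable {K : Type*} [Field K] [Fintype K] [CharP K 3] {m : ℕ} (hK : Fintype.card K = 3 ^ (2 * m + 1))

/-- An involution in the torus of the concrete group is the torus involution. -/
theorem eq_t0_of_diag {a : ↥(twistedG2 K (3 ^ m))} (haH : (a : GL chevG2.Idx K) ∈ chevG2.diagonalSubgroup K)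
    (ha1 : a ≠ 1) (ha2 : a * a = 1) : a = (dat hK).t0 := by
  obtain ⟨κ, hκ, h⟩ := (mem_H_inf (frOf hK) (sq_or_neg hK) (frOf_θ hK)).1 ⟨haH, a.2⟩
  have h1 : a = (dat hK).d (Units.mk0 κ hκ) := Subtype.ext h
  rw [h1, ← map_mul] at ha2
  have h2 : Units.mk0 κ hκ * Units.mk0 κ hκ = 1 := (dat hK).d_inj (ha2.trans (map_one _).symm)
  have h3 : κ * κ = 1 := congrArg (fun z : Kˣ => (z : K)) h2
  have h4 : (κ - 1) * (κ + 1) = 0 := by linear_combination h3
  rcases mul_eq_zero.1 h4 with h5 | h5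
  · exfalso
    apply ha1
    have h6 : Units.mk0 κ hκ = 1 := Units.ext (sub_eq_zero.1 h5)
    rw [h1, h6, map_one]
  · have h6 : Units.mk0 κ hκ = -1 := Units.ext (by simpa using eq_neg_of_add_eq_zero_left h5)
    rw [h1, h6]
    rfl

end Cfsg.Agent.Lib.Ree.Abs
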